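import Cfsg.Agent.Lib.Fi.St7
import Cfsg.Agent.Lib.Fi.St22
import Cfsg.Agent.Lib.Fi.Types

/-! The subgroup `Ω₇(3)` of a group of type M(22). -/

set_option autoImplicit false
set_option maxRecDepth 100000

namespace CA.Fs
open Subgroup Cfsg CA.Fi

/-- the transpositions of the subgroup -/
def o7S {G : Type*} (t : ℕ → G) : Set G := t '' {p | (c23.muM S22).testBit p = true}

theorem o7_bs : allL (fun b => tb (c23.muM S22) b) L22.bs = true := by decide +kernel

theorem o7_iso {G : Type*} [Group G] [Finite G] {D : Set G} {t : ℕ → G} (h : Model S22 D t)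
    (hG : Nat.card G = 64561751654400) :
    Nonempty (closure (o7S t) ≃* POmega (ZMod 3) (quadFormOdd 3 (ZMod 3))) ∧
      Nat.card (closure (o7S t)) = 4585351680 := by
  have h1 : center (closure (o7S t)) = ⊥ := eq_bot_iff.2 fun x hx => Subtype.ext
    ((lm22 h hG).faith _ fun b hb => (congrArg Subtype.val (mem_center_iff.1 hx
      ⟨t b, subset_closure ⟨b, by simpa using allL_iff.1 o7_bs b hb, rfl⟩⟩)).symm)
  have h2 := (h.lm.isO7 fun x hx => by
    obtain ⟨p, hp, rfl⟩ := h.exists_pt hx
    exact Sys.Real.sq h.real S22_OK h.trans h.g_sq p hp).congr (quotCenterBot h1)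
  exact ⟨isO7_iff'.1 h2, h2.card⟩

end CA.Fs
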